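import Cfsg.Agent.Lib.Helper1.MinSp.ORB

/-!
# S2141 farm (helper14), piece BAD
-/

set_option autoImplicit false
set_option linter.unusedSectionVars false

namespace Cfsg.Agent.Lib.Helper1.MinSp

open Matrix Cfsg.Agent.Lib.Helper13 Cfsg.Agent.Lib.Helper5 Cfsg.Agent.Lib.Helper14.MinSp

variable {F : Type*} [Field F] {m : ℕ}

/-- for independent `x`, `y` there is `z ⊥ x` with `(y,z) ≠ 0` -/
theorem bad_exists_z {x y : Fin m ⊕ Fin m → F} (hy : ∀ t : F, y ≠ t • x) :
    ∃ z, Cfsg.sympForm m F x z = 0 ∧ Cfsg.sympForm m F y z ≠ 0 := by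
  have hy0 : y ≠ 0 := by
    have := hy 0
    rwa [zero_smul] at this
  obtain ⟨a, ha⟩ : ∃ a, Cfsg.sympForm m F y a ≠ 0 := by
    by_contra hcon
    push Not at hcon
    exact hy0 (sympForm_nondeg y hcon)
  by_cases hxa : Cfsg.sympForm m F x a = 0
  · exact ⟨a, hxa, ha⟩
  · have hy' : y - (Cfsg.sympForm m F y a / Cfsg.sympForm m F x a) • x ≠ 0 := by
      intro h
      exact hy _ (sub_eq_zero.1 h)
    obtain ⟨b, hb⟩ : ∃ b, Cfsg.sympForm m F
        (y - (Cfsg.sympForm m F y a / Cfsg.sympForm m F x a) • x) b ≠ 0 := by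
      by_contra hcon
      push Not at hcon
      exact hy' (sympForm_nondeg _ hcon)
    refine ⟨b - (Cfsg.sympForm m F x b / Cfsg.sympForm m F x a) • a, ?_, ?_⟩
    · rw [sympForm_sub_right, sympForm_smul_right]
      field_simp
      ring
    · rw [sympForm_sub_left, sympForm_smul_left] at hb
      rw [sympForm_sub_right, sympForm_smul_right]
      intro h
      apply hb
      rw [← h]
      field_simp

/-- [BAD] -/
theorem bad_even [Fintype F] (R : Subgroup (Matrix.symplecticGroup (Fin m) F))
    (C : AddSubgroup (Fin m ⊕ Fin m → F)) (hC : Nat.card C = Fintype.card F)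
    (hR : ∀ l ∈ R, ∀ x ∈ C, l.1 *ᵥ x ∈ C)
    (hidx : R.index * (Fintype.card F - 1) = Fintype.card F ^ (2 * m) - 1) :
    ∃ x : Fin m ⊕ Fin m → F, x ≠ 0 ∧ (∀ y, y ∈ C ↔ ∃ t : F, y = t • x) ∧
      ∀ l : Matrix.symplecticGroup (Fin m) F, (∃ t : F, l.1 *ᵥ x = t • x) → l ∈ R := by
  classical
  have hq : 1 < Fintype.card F := Fintype.one_lt_card
  have hCbot : C ≠ ⊥ := by
    rintro rfl
    rw [AddSubgroup.card_bot] at hC
    omega
  obtain ⟨x, hx, hx0⟩ : ∃ x ∈ C, x ≠ 0 := by
    by_contra hcon
    push Not at hcon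
    exact hCbot ((AddSubgroup.eq_bot_iff_forall _).2 hcon)
  -- the map of ORB is a bijection
  have hsurj := orbMap_surjective R C hCbot hR
  have hinj : Function.Injective (orbMap R C) := by
    have hcard : Nat.card ((Matrix.symplecticGroup (Fin m) F ⧸ R) × {c : C // c ≠ 0})
        = Nat.card {v : Fin m ⊕ Fin m → F // v ≠ 0} := by
      rw [orb_card_dom, orb_card_cod, hC, hidx]
    have := Fintype.ofFinite ((Matrix.symplecticGroup (Fin m) F ⧸ R) × {c : C // c ≠ 0})
    have := Fintype.ofFinite {v : Fin m ⊕ Fin m → F // v ≠ 0}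
    rw [Nat.card_eq_fintype_card, Nat.card_eq_fintype_card] at hcard
    exact ((Fintype.bijective_iff_surjective_and_card _).2 ⟨hsurj, hcard⟩).1
  -- elements mapping a nonzero vector of `C` into `C` are in `R`
  have key : ∀ (g : Matrix.symplecticGroup (Fin m) F) (u : Fin m ⊕ Fin m → F), u ∈ C → u ≠ 0 →
      g.1 *ᵥ u ∈ C → g ∈ R := by
    intro g u hu hu0 hgu
    obtain ⟨c, hc⟩ := orbMap_mk R C hR g hu hu0
    obtain ⟨c', hc'⟩ := orbMap_mk R C hR 1 hgu (orb_ne_zero g hu0)
    have h1 : (1 : Matrix.symplecticGroup (Fin m) F).1 *ᵥ (g.1 *ᵥ u) = g.1 *ᵥ u := by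
      change (1 : Matrix _ _ F) *ᵥ _ = _
      rw [Matrix.one_mulVec]
    rw [h1, ← hc] at hc'
    have h2 := congrArg Prod.fst (hinj (Subtype.ext hc'))
    have h3 := QuotientGroup.eq.1 h2
    simpa using h3
  -- `C ⊆ F x`
  have hsub : ∀ y ∈ C, ∃ t : F, y = t • x := by
    intro y hy
    by_contra hcon
    push Not at hcon
    have hline : ∀ t : F, y + t • x ∈ C := by
      by_cases hyx : Cfsg.sympForm m F y x = 0
      · obtain ⟨z, hz1, hz2⟩ := bad_exists_z hcon
        intro t
        obtain ⟨g, hg⟩ := exists_siegel x z hz1 (t / Cfsg.sympForm m F y z)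
        have hgx : g.1 *ᵥ x = x := by
          rw [hg, sympForm_self, hz1]
          simp
        have hgR : g ∈ R := key g x hx hx0 (by rw [hgx]; exact hx)
        have := hR g hgR y hy
        rw [hg, hyx, zero_smul, zero_add, smul_smul, div_mul_cancel₀ _ hz2] at this
        exact this
      · intro t
        have hgx : (tv x (t / Cfsg.sympForm m F y x)).1 *ᵥ x = x := by
          rw [tv_mulVec, sympForm_self]
          simp
        have hgR : tv x (t / Cfsg.sympForm m F y x) ∈ R := key _ x hx hx0 (by rw [hgx]; exact hx)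
        have := hR _ hgR y hy
        rw [tv_mulVec, div_mul_cancel₀ _ hyx] at this
        exact this
    let φ : Option F → C := fun o => match o with
      | none => 0
      | some t => ⟨y + t • x, hline t⟩
    have hφ : Function.Injective φ := by
      intro a b hab
      rcases a with _ | a <;> rcases b with _ | b
      · rfl
      · exfalso
        have h1 : (0 : Fin m ⊕ Fin m → F) = y + b • x := congrArg Subtype.val hab
        apply hcon (-b)
        rw [neg_smul]
        exact eq_neg_of_add_eq_zero_left h1.symm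
      · exfalso
        have h1 : y + a • x = (0 : Fin m ⊕ Fin m → F) := congrArg Subtype.val hab
        apply hcon (-a)
        rw [neg_smul]
        exact eq_neg_of_add_eq_zero_left h1
      · have h1 : y + a • x = y + b • x := congrArg Subtype.val hab
        have h2 : (a - b) • x = 0 := by
          rw [sub_smul, add_left_cancel h1, sub_self]
        rcases smul_eq_zero.1 h2 with h3 | h3
        · rw [sub_eq_zero.1 h3]
        · exact absurd h3 hx0
    have hle := Nat.card_le_card_of_injective φ hφ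
    rw [hC, Nat.card_eq_fintype_card, Fintype.card_option] at hle
    omega
  -- `F x ⊆ C`
  have hsup : ∀ t : F, t • x ∈ C := by
    let ψ : C → F := fun y => (hsub y.1 y.2).choose
    have hψ : ∀ y : C, (y : Fin m ⊕ Fin m → F) = ψ y • x := fun y => (hsub y.1 y.2).choose_spec
    have hψi : Function.Injective ψ := by
      intro a b hab
      apply Subtype.ext
      rw [hψ a, hψ b, hab]
    have := Fintype.ofFinite C
    have hcard : Fintype.card C = Fintype.card F := by rw [← Nat.card_eq_fintype_card, hC]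
    have hψs := ((Fintype.bijective_iff_injective_and_card ψ).2 ⟨hψi, hcard⟩).2
    intro t
    obtain ⟨y, hy⟩ := hψs t
    rw [← hy, ← hψ y]
    exact y.2
  refine ⟨x, hx0, fun y => ⟨hsub y, ?_⟩, ?_⟩
  · rintro ⟨t, rfl⟩
    exact hsup t
  · rintro l ⟨t, ht⟩
    exact key l x hx hx0 (by rw [ht]; exact hsup t)

end Cfsg.Agent.Lib.Helper1.MinSp
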