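import Mathlib
import Cfsg.Agent.Lib.Helper14.MinSp.Defs
import Cfsg.Agent.Lib.Helper5.SpNondegStab

/-!
# S2141 farm (helper14), piece ORB
-/

set_option autoImplicit false
set_option linter.unusedSectionVars false

namespace Cfsg.Agent.Lib.Helper1.MinSp

open Matrix Cfsg.Agent.Lib.Helper13 Cfsg.Agent.Lib.Helper5 Cfsg.Agent.Lib.Helper14.MinSp

variable {F : Type*} [Field F] {m : ℕ}

theorem orb_card_ne {α : Type*} [Finite α] (a : α) : Nat.card {x : α // x ≠ a} = Nat.card α - 1 := by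
  classical
  have := Fintype.ofFinite α
  rw [Nat.card_eq_fintype_card, Nat.card_eq_fintype_card]
  exact Set.card_ne_eq a

theorem orb_card_V [Fintype F] : Nat.card (Fin m ⊕ Fin m → F) = Fintype.card F ^ (2 * m) := by
  rw [Nat.card_eq_fintype_card, Fintype.card_fun, Fintype.card_sum, Fintype.card_fin, two_mul]

theorem orb_ne_zero (g : Matrix.symplecticGroup (Fin m) F) {x : Fin m ⊕ Fin m → F} (hx : x ≠ 0) :
    g.1 *ᵥ x ≠ 0 := by
  intro h
  apply hx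
  have := sp_inv_mulVec_mulVec g x
  rw [h, Matrix.mulVec_zero] at this
  exact this.symm

theorem orb_trans {x y : Fin m ⊕ Fin m → F} (hx : x ≠ 0) (hy : y ≠ 0) :
    ∃ A : Matrix.symplecticGroup (Fin m) F, A.1 *ᵥ x = y := by
  have hW : ∀ u ∈ (⊤ : Submodule F (Fin m ⊕ Fin m → F)), u ≠ 0 →
      ∃ a ∈ (⊤ : Submodule F (Fin m ⊕ Fin m → F)), Cfsg.sympForm m F u a ≠ 0 := by
    intro u _ hu
    by_contra hcon
    push Not at hcon
    exact hu (sympForm_nondeg u (fun v => hcon v trivial))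
  obtain ⟨B, _, hB⟩ := exists_tv_vec (⊤ : Submodule F (Fin m ⊕ Fin m → F)) hW
    (u := x) (u' := y) trivial trivial hx hy
  exact ⟨B, hB⟩

/-- the map `(tR, y) ↦ t y` -/
noncomputable def orbMap (R : Subgroup (Matrix.symplecticGroup (Fin m) F))
    (C : AddSubgroup (Fin m ⊕ Fin m → F)) :
    (Matrix.symplecticGroup (Fin m) F ⧸ R) × {c : C // c ≠ 0} → {v : Fin m ⊕ Fin m → F // v ≠ 0} :=
  fun p => ⟨(Quotient.out p.1 : Matrix.symplecticGroup (Fin m) F).1 *ᵥ (p.2.1 : Fin m ⊕ Fin m → F),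
    orb_ne_zero _ (fun h => p.2.2 (Subtype.ext h))⟩

theorem orbMap_mk (R : Subgroup (Matrix.symplecticGroup (Fin m) F))
    (C : AddSubgroup (Fin m ⊕ Fin m → F)) (hR : ∀ l ∈ R, ∀ x ∈ C, l.1 *ᵥ x ∈ C)
    (g : Matrix.symplecticGroup (Fin m) F) {x : Fin m ⊕ Fin m → F} (hx : x ∈ C) (hx0 : x ≠ 0) :
    ∃ c : {c : C // c ≠ 0}, (orbMap R C ((g : Matrix.symplecticGroup (Fin m) F ⧸ R), c)).1
      = g.1 *ᵥ x := by
  have hr : (Quotient.out (g : Matrix.symplecticGroup (Fin m) F ⧸ R))⁻¹ * g ∈ R :=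
    QuotientGroup.eq.1 (QuotientGroup.out_eq' _)
  refine ⟨⟨⟨_, hR _ hr x hx⟩, fun h => orb_ne_zero _ hx0 (congrArg Subtype.val h)⟩, ?_⟩
  show (Quotient.out (g : Matrix.symplecticGroup (Fin m) F ⧸ R)).1 *ᵥ
    (((Quotient.out (g : Matrix.symplecticGroup (Fin m) F ⧸ R))⁻¹ * g).1 *ᵥ x) = g.1 *ᵥ x
  rw [← sp_mul_mulVec, mul_inv_cancel_left]

theorem orbMap_surjective (R : Subgroup (Matrix.symplecticGroup (Fin m) F))
    (C : AddSubgroup (Fin m ⊕ Fin m → F)) (hC : C ≠ ⊥) (hR : ∀ l ∈ R, ∀ x ∈ C, l.1 *ᵥ x ∈ C) :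
    Function.Surjective (orbMap R C) := by
  rintro ⟨v, hv⟩
  obtain ⟨x, hx, hx0⟩ : ∃ x ∈ C, x ≠ 0 := by
    by_contra hcon
    push Not at hcon
    exact hC ((AddSubgroup.eq_bot_iff_forall _).2 hcon)
  obtain ⟨A, hA⟩ := orb_trans hx0 hv
  obtain ⟨c, hc⟩ := orbMap_mk R C hR A hx hx0
  exact ⟨_, Subtype.ext (hc.trans hA)⟩

theorem orb_card_dom [Fintype F] (R : Subgroup (Matrix.symplecticGroup (Fin m) F))
    (C : AddSubgroup (Fin m ⊕ Fin m → F)) :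
    Nat.card ((Matrix.symplecticGroup (Fin m) F ⧸ R) × {c : C // c ≠ 0})
      = R.index * (Nat.card C - 1) := by
  rw [Nat.card_prod, orb_card_ne]
  rfl

theorem orb_card_cod [Fintype F] :
    Nat.card {v : Fin m ⊕ Fin m → F // v ≠ 0} = Fintype.card F ^ (2 * m) - 1 := by
  rw [orb_card_ne, orb_card_V]

/-- [ORB] -/
theorem orbit_ratio [Fintype F] (R : Subgroup (Matrix.symplecticGroup (Fin m) F))
    (C : AddSubgroup (Fin m ⊕ Fin m → F)) (hC : C ≠ ⊥) (hR : ∀ l ∈ R, ∀ x ∈ C, l.1 *ᵥ x ∈ C) :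
    Fintype.card F ^ (2 * m) - 1 ≤ R.index * (Nat.card C - 1) := by
  rw [← orb_card_dom, ← orb_card_cod]
  exact Nat.card_le_card_of_surjective _ (orbMap_surjective R C hC hR)

end Cfsg.Agent.Lib.Helper1.MinSp
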