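import Mathlib
import Cfsg.Agent.Lib.Helper14.MinSp.Defs
import Cfsg.Agent.Lib.Helper5.SpNondegStab

/-!
# S2141 farm (helper14), piece PERF
-/

set_option autoImplicit false

namespace Cfsg.Agent.Lib.Helper1.MinSp

open Matrix Cfsg.Agent.Lib.Helper13 Cfsg.Agent.Lib.Helper5 Cfsg.Agent.Lib.Helper14.MinSp

variable {F : Type*} [Field F] {m : ℕ}

/-- [PERF] -/
theorem three_le_index [Fintype F] (hm : 1 ≤ m) (hq : 3 ≤ Fintype.card F)
    (hexc : ¬ (m = 1 ∧ Fintype.card F = 3))
    (R : Subgroup (Matrix.symplecticGroup (Fin m) F)) (hR : R ≠ ⊤) : 3 ≤ R.index := by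
  have hperf : commutator (Matrix.symplecticGroup (Fin m) F) = ⊤ := by
    apply sp_commutator_eq_top
    by_cases h3 : 3 ≤ m
    · exact Or.inl h3
    · by_cases h2 : m = 2
      · exact Or.inr (Or.inl ⟨h2, hq⟩)
      · have h1 : m = 1 := by omega
        right; right
        by_contra h4
        exact hexc ⟨h1, by omega⟩
  have h0 : R.index ≠ 0 := Subgroup.index_ne_zero_of_finite
  have h1 : R.index ≠ 1 := fun h => hR (Subgroup.index_eq_one.1 h)
  have h2 : R.index ≠ 2 := by
    intro h2
    have hn : R.Normal := Subgroup.normal_of_index_eq_two h2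
    have : Fact (Nat.Prime 2) := ⟨Nat.prime_two⟩
    have hcyc : IsCyclic (Matrix.symplecticGroup (Fin m) F ⧸ R) :=
      isCyclic_of_prime_card (p := 2) h2
    let _ : CommGroup (Matrix.symplecticGroup (Fin m) F ⧸ R) := IsCyclic.commGroup
    have hle := Abelianization.commutator_subset_ker (QuotientGroup.mk' R)
    rw [hperf, QuotientGroup.ker_mk'] at hle
    exact hR (top_le_iff.1 hle)
  omega

end Cfsg.Agent.Lib.Helper1.MinSp
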