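import Mathlib
import Cfsg.Agent.Lib.Helper14.MinSp.Defs
import Cfsg.Agent.Lib.Helper5.SpNondegStab

/-!
# S2141 farm (helper14), piece S1r
-/

set_option autoImplicit false
set_option linter.unusedSectionVars false

namespace Cfsg.Agent.Lib.Helper1.MinSp

open Matrix Cfsg.Agent.Lib.Helper13 Cfsg.Agent.Lib.Helper5 Cfsg.Agent.Lib.Helper14.MinSp

variable {F : Type*} [Field F] {m : ℕ}

/-- mapping a subspace into itself is enough to stabilise it -/
theorem s1r_mem_stab (W : Submodule F (Fin m ⊕ Fin m → F)) (g : Matrix.symplecticGroup (Fin m) F)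
    (h : ∀ x ∈ W, g.1 *ᵥ x ∈ W) :
    g ∈ Cfsg.stabilizing (Cfsg.spToMat m F) (W : Set (Fin m ⊕ Fin m → F)) := by
  have hinj0 : ∀ a b : Fin m ⊕ Fin m → F, g.1 *ᵥ a = g.1 *ᵥ b → a = b := by
    intro a b hab
    rw [← sp_inv_mulVec_mulVec g a, hab, sp_inv_mulVec_mulVec]
  let φ : W →ₗ[F] W := (Matrix.mulVecLin g.1).restrict h
  have hφ : ∀ a : W, ((φ a : W) : Fin m ⊕ Fin m → F) = g.1 *ᵥ (a : Fin m ⊕ Fin m → F) := fun a => rfl
  have hinj : Function.Injective φ := by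
    intro a b hab
    apply Subtype.ext
    apply hinj0
    rw [← hφ, ← hφ, hab]
  have hsurj := LinearMap.injective_iff_surjective.1 hinj
  intro v
  constructor
  · intro hv
    exact h v hv
  · intro hv
    obtain ⟨w, hw⟩ := hsurj ⟨_, hv⟩
    have h1 : g.1 *ᵥ (w : Fin m ⊕ Fin m → F) = g.1 *ᵥ v := by
      rw [← hφ, hw]
      rfl
    rw [← hinj0 _ _ h1]
    exact w.2

/-- the linear form `(·, w)` -/
def s1rL (w : Fin m ⊕ Fin m → F) : Module.Dual F (Fin m ⊕ Fin m → F) where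
  toFun v := Cfsg.sympForm m F v w
  map_add' a b := sympForm_add_left a b w
  map_smul' c a := by rw [sympForm_smul_left]; rfl

/-- [S1r] -/
theorem relIndex_stab_le [Fintype F] (W : Submodule F (Fin m ⊕ Fin m → F)) (hW0 : W ≠ ⊥)
    (hW : ∀ u ∈ W, (∀ v ∈ W, Cfsg.sympForm m F u v = 0) → u = 0)
    (H : Subgroup (Matrix.symplecticGroup (Fin m) F))
    (hH : ∀ h ∈ H, (∀ x ∈ W, h.1 *ᵥ x ∈ W) ∨
      (∀ x ∈ W, ∀ y ∈ W, Cfsg.sympForm m F (h.1 *ᵥ x) y = 0)) :
    (Cfsg.stabilizing (Cfsg.spToMat m F) (W : Set (Fin m ⊕ Fin m → F))).relIndex H ≤ m := by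
  classical
  obtain ⟨x, hx, hx0⟩ := Submodule.exists_mem_ne_zero_of_ne_bot hW0
  obtain ⟨y0, hy0, hxy0⟩ : ∃ y ∈ W, Cfsg.sympForm m F x y ≠ 0 := by
    by_contra hcon
    push Not at hcon
    exact hx0 (hW x hx hcon)
  obtain ⟨y, hy, hxy⟩ : ∃ y ∈ W, Cfsg.sympForm m F x y = 1 :=
    ⟨(Cfsg.sympForm m F x y0)⁻¹ • y0, W.smul_mem _ hy0, by
      rw [sympForm_smul_right, inv_mul_cancel₀ hxy0]⟩
  have hyx : Cfsg.sympForm m F y x = -1 := by rw [sympForm_swap, hxy]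
  set St := Cfsg.stabilizing (Cfsg.spToMat m F) (W : Set (Fin m ⊕ Fin m → F)) with hSt
  let rep : H ⧸ St.subgroupOf H → H := Quotient.out
  have hne : ∀ c c' : H ⧸ St.subgroupOf H, c ≠ c' → ∀ u ∈ W, ∀ w ∈ W,
      Cfsg.sympForm m F ((rep c).1.1 *ᵥ u) ((rep c').1.1 *ᵥ w) = 0 := by
    intro c c' hcc u hu w hw
    have hg : (rep c')⁻¹ * rep c ∉ St.subgroupOf H := by
      intro hmem
      apply hcc
      have h1 : ((rep c' : H) : H ⧸ St.subgroupOf H) = (rep c : H) := QuotientGroup.eq.2 hmem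
      rw [QuotientGroup.out_eq', QuotientGroup.out_eq'] at h1
      exact h1.symm
    rcases hH ((rep c')⁻¹ * rep c : H).1 ((rep c')⁻¹ * rep c : H).2 with h1 | h1
    · exact absurd (Subgroup.mem_subgroupOf.2 (s1r_mem_stab W _ h1)) hg
    · have h2 := h1 u hu w hw
      rw [← sp_preserves ((rep c').1⁻¹), sp_inv_mulVec_mulVec, ← sp_mul_mulVec]
      exact h2
  have hsame : ∀ (c : H ⧸ St.subgroupOf H) (u w : Fin m ⊕ Fin m → F),
      Cfsg.sympForm m F ((rep c).1.1 *ᵥ u) ((rep c).1.1 *ᵥ w) = Cfsg.sympForm m F u w :=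
    fun c u w => sp_preserves _ u w
  let v : (H ⧸ St.subgroupOf H) ⊕ (H ⧸ St.subgroupOf H) → (Fin m ⊕ Fin m → F) :=
    Sum.elim (fun c => (rep c).1.1 *ᵥ x) (fun c => (rep c).1.1 *ᵥ y)
  let f : (H ⧸ St.subgroupOf H) ⊕ (H ⧸ St.subgroupOf H) → Module.Dual F (Fin m ⊕ Fin m → F) :=
    Sum.elim (fun c => s1rL ((rep c).1.1 *ᵥ y)) (fun c => - s1rL ((rep c).1.1 *ᵥ x))
  have hli : LinearIndependent F v := by
    apply LinearIndependent.of_pairwise_dual_eq_zero_one v f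
    · rintro (c | c) (c' | c') hcc
      · show Cfsg.sympForm m F ((rep c').1.1 *ᵥ x) ((rep c).1.1 *ᵥ y) = 0
        exact hne c' c (fun h => hcc (by rw [h])) x hx y hy
      · show Cfsg.sympForm m F ((rep c').1.1 *ᵥ y) ((rep c).1.1 *ᵥ y) = 0
        by_cases h : c' = c
        · rw [h, hsame, sympForm_self]
        · exact hne c' c h y hy y hy
      · show - Cfsg.sympForm m F ((rep c').1.1 *ᵥ x) ((rep c).1.1 *ᵥ x) = 0
        by_cases h : c' = c
        · rw [h, hsame, sympForm_self, neg_zero]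
        · rw [hne c' c h x hx x hx, neg_zero]
      · show - Cfsg.sympForm m F ((rep c').1.1 *ᵥ y) ((rep c).1.1 *ᵥ x) = 0
        rw [hne c' c (fun h => hcc (by rw [h])) y hy x hx, neg_zero]
    · rintro (c | c)
      · show Cfsg.sympForm m F ((rep c).1.1 *ᵥ x) ((rep c).1.1 *ᵥ y) = 1
        rw [hsame, hxy]
      · show - Cfsg.sympForm m F ((rep c).1.1 *ᵥ y) ((rep c).1.1 *ᵥ x) = 1
        rw [hsame, hyx, neg_neg]
  have := Fintype.ofFinite (H ⧸ St.subgroupOf H)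
  have hle := hli.fintype_card_le_finrank
  rw [Fintype.card_sum, Module.finrank_fintype_fun_eq_card, Fintype.card_sum, Fintype.card_fin] at hle
  have hrel : St.relIndex H = Fintype.card (H ⧸ St.subgroupOf H) := by
    rw [← Nat.card_eq_fintype_card]
    rfl
  rw [hrel]
  omega

end Cfsg.Agent.Lib.Helper1.MinSp
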